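import Mathlib
import Cfsg.Agent.Lib.Helper8.OFus.Defs

/-!
# S2720 / S2721, package GLUE

From the irreducible (self-dual) case and the hyperbolic case to the general statement:
if `A ≠ 1` there is an even product of reflections commuting with `A` with non-square
spinor norm.
-/

set_option autoImplicit false

namespace Cfsg.Agent.Lib.Helper11.OFus

open Polynomial Module
open Cfsg.Agent.Lib.Helper8.WallBasic Cfsg.Agent.Lib.Helper8.WallForm
open Cfsg.Agent.Lib.Helper8.WallRank Cfsg.Agent.Lib.Helper8.WallInd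
open Cfsg.Agent.Lib.Helper8.OFus
open Cfsg.Agent.Lib.Helper14 (reflLin)

universe u

section transfer

variable {F : Type*} [Field F] {V : Type*} [AddCommGroup V] [Module F V]

theorem coe_pow_apply {X : Submodule F V} {A' : X →ₗ[F] X} {B : V →ₗ[F] V}
    (h : ∀ x : X, ((A' x : X) : V) = B x) (k : ℕ) (x : X) :
    (((A' ^ k) x : X) : V) = (B ^ k) x := by
  induction k generalizing x with
  | zero => simp
  | succ k ih =>
    rw [pow_succ, pow_succ, Module.End.mul_apply, Module.End.mul_apply, ih, h]

theorem coe_aeval_apply {X : Submodule F V} {A' : X →ₗ[F] X} {B : V →ₗ[F] V}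
    (h : ∀ x : X, ((A' x : X) : V) = B x) (g : F[X]) (x : X) :
    ((aeval A' g x : X) : V) = aeval B g x := by
  induction g using Polynomial.induction_on' with
  | add p q hp hq =>
    rw [map_add, map_add, LinearMap.add_apply, LinearMap.add_apply, Submodule.coe_add, hp, hq]
  | monomial n a =>
    rw [aeval_monomial, aeval_monomial, Module.End.mul_apply, Module.End.mul_apply,
      Module.algebraMap_end_apply, Module.algebraMap_end_apply, Submodule.coe_smul,
      coe_pow_apply h]

theorem ann_comap {X U : Submodule F V} (hUX : U ≤ X) {A' : X →ₗ[F] X} {B : V →ₗ[F] V}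
    (h : ∀ x : X, ((A' x : X) : V) = B x) :
    ann A' (U.comap X.subtype) = ann B U := by
  ext g
  rw [mem_ann, mem_ann]
  constructor
  · intro hg u hu
    have h1 := hg ⟨u, hUX hu⟩ hu
    have h2 := coe_aeval_apply h g ⟨u, hUX hu⟩
    rw [h1] at h2
    exact h2.symm
  · intro hg u hu
    apply Subtype.ext
    rw [coe_aeval_apply h g u]
    exact hg u hu

theorem irr_comap {A : V →ₗ[F] V} {X U : Submodule F V} (hX : Inv A X) (hUX : U ≤ X)
    (hU : Irr A U) : Irr (A.restrict hX) (U.comap X.subtype) := by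
  refine ⟨?_, ?_, ?_⟩
  · intro h
    obtain ⟨u, hu, hu0⟩ := irr_exists_ne hU.1
    have hmem : (⟨u, hUX hu⟩ : X) ∈ U.comap X.subtype := hu
    rw [h, Submodule.mem_bot] at hmem
    exact hu0 (congrArg Subtype.val hmem)
  · intro x hx
    exact hU.2.1 _ hx
  · intro U₀ hU₀ hinv
    have hle : U₀.map X.subtype ≤ U := by
      rintro _ ⟨y, hy, rfl⟩
      exact hU₀ hy
    have hinv' : Inv A (U₀.map X.subtype) := by
      rintro _ ⟨y, hy, rfl⟩
      exact ⟨(A.restrict hX) y, hinv y hy, rfl⟩
    rcases hU.2.2 _ hle hinv' with h | h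
    · left
      rw [Submodule.eq_bot_iff]
      intro y hy
      have hmem : (y : V) ∈ U₀.map X.subtype := ⟨y, hy, rfl⟩
      rw [h, Submodule.mem_bot] at hmem
      exact Subtype.ext hmem
    · right
      apply le_antisymm hU₀
      intro y hy
      have hmem : (y : V) ∈ U₀.map X.subtype := by
        rw [h]
        exact hy
      obtain ⟨z, hz, hzy⟩ := hmem
      have hzy' : z = y := Subtype.ext hzy
      rw [← hzy']
      exact hz

end transfer

theorem std_restrict {F : Type u} [Field F] {V : Type u} [AddCommGroup V] [Module F V]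
    {Q : QuadraticForm F V} {N : ℕ} {A : V →ₗ[F] V} (S : Std Q N A) {X : Submodule F V}
    (hX : Inv A X) (hnd : NondegOn (QuadraticMap.polarBilin Q) X) :
    Std (Q.restrict X) N (A.restrict hX) where
  two := S.two
  nondeg := by
    have hpol : ∀ x y : X, QuadraticMap.polarBilin (Q.restrict X) x y =
        QuadraticMap.polarBilin Q (x : V) (y : V) := fun x y => rfl
    constructor
    · intro x hx
      apply Subtype.ext
      apply hnd x x.2
      intro y hy
      have h1 := hx ⟨y, hy⟩
      rw [hpol] at h1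
      exact h1
    · intro y hy
      apply Subtype.ext
      apply hnd y y.2
      intro x hx
      have h1 := hy ⟨x, hx⟩
      rw [hpol] at h1
      rw [S.setup.symm]
      exact h1
  odd := S.odd
  ne := S.ne
  pow := by
    apply LinearMap.ext
    intro x
    apply Subtype.ext
    rw [coe_pow_apply (B := A) (fun _ => rfl) N x, S.pow]
    rfl
  isom := fun v => S.isom v

theorem pkgS_of (hsd : PkgSd.{u}) (hhyp : PkgHyp.{u}) : PkgS.{u} := by
  intro F _ _ V _ _ _ Q N A hS hA1
  have S := hS.setup
  have hnd : ∀ x, (∀ y, QuadraticMap.polarBilin Q x y = 0) → x = 0 := hS.nondeg.1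
  have hM0 : LinearMap.range (A - 1) ≠ ⊥ := by
    intro h
    apply hA1
    rw [LinearMap.range_eq_bot] at h
    exact sub_eq_zero.mp h
  have hMinv := range_inv A
  have hMnd := range_nondeg S hnd
  have hfix := fix_range S
  obtain ⟨U, hUM, hU⟩ := exists_irr A _ (LinearMap.range (A - 1)) rfl hMinv hM0
  suffices h : ∃ X : Submodule F V, ∃ hX : Inv A X, NondegOn (QuadraticMap.polarBilin Q) X ∧
      HasOddRefl (Q.restrict X) (A.restrict hX) by
    obtain ⟨X, hX, hXnd, l', hl'Q, hl'even, hl'sq, hl'comm⟩ := h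
    refine ⟨l'.map Subtype.val, ?_, ?_, ?_, ?_⟩
    · intro u hu
      rw [List.mem_map] at hu
      obtain ⟨u', hu', rfl⟩ := hu
      exact hl'Q u' hu'
    · rw [List.length_map]
      exact hl'even
    · rw [List.map_map]
      exact hl'sq
    · have hperp : ∀ n ∈ perp (QuadraticMap.polarBilin Q) X,
          ((l'.map Subtype.val).map (reflLin Q)).prod n = n := by
        intro n hn
        apply Cfsg.Agent.Lib.Helper14.prod_refl_fix
        intro u hu
        rw [List.mem_map] at hu
        obtain ⟨u', hu', rfl⟩ := hu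
        exact hn u' u'.2
      have hX' : ∀ y : X, ((l'.map Subtype.val).map (reflLin Q)).prod (y : V) =
          (((l'.map (reflLin (Q.restrict X))).prod y : X) : V) :=
        fun y => Cfsg.Agent.Lib.Helper14.prod_refl_extend Q X l' y
      intro v
      have hv : v ∈ X ⊔ (⊤ ⊓ perp (QuadraticMap.polarBilin Q) X) := by
        rw [perp_sup S.symm hXnd le_top]
        trivial
      obtain ⟨x, hx, n, hn, rfl⟩ := Submodule.mem_sup.mp hv
      have hAn : A n ∈ perp (QuadraticMap.polarBilin Q) X := S.perp_inv hX n hn.2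
      have key : ((l'.map Subtype.val).map (reflLin Q)).prod (A x) =
          A (((l'.map Subtype.val).map (reflLin Q)).prod x) := by
        have h1 := hX' ((A.restrict hX) ⟨x, hx⟩)
        have h2 := hX' ⟨x, hx⟩
        have h3 := hl'comm ⟨x, hx⟩
        calc ((l'.map Subtype.val).map (reflLin Q)).prod (A x)
            = (((l'.map (reflLin (Q.restrict X))).prod ((A.restrict hX) ⟨x, hx⟩) : X) : V) := h1
          _ = (((A.restrict hX) ((l'.map (reflLin (Q.restrict X))).prod ⟨x, hx⟩) : X) : V) := by
              rw [h3]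
          _ = A ((((l'.map (reflLin (Q.restrict X))).prod ⟨x, hx⟩ : X)) : V) := rfl
          _ = A (((l'.map Subtype.val).map (reflLin Q)).prod x) := by rw [← h2]
      rw [map_add, map_add, map_add, map_add, hperp n hn.2, hperp _ hAn, key]
  by_cases hsdU : ann A U = ann (A ^ (N - 1)) U
  · obtain ⟨W, hWM, hW, hWnd, -⟩ := exists_nondeg_irr S hMinv hMnd hfix hU hUM hsdU
    refine ⟨W, hW.2.1, hWnd, ?_⟩
    have hStd' := std_restrict hS hW.2.1 hWnd
    apply hsd (Q.restrict W) N (A.restrict hW.2.1) hStd'
    · have h1 := irr_comap hW.2.1 le_rfl hW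
      rwa [Submodule.comap_subtype_self] at h1
    · intro v hv
      apply Subtype.ext
      exact hfix v (hWM v.2) (congrArg Subtype.val hv)
  · obtain ⟨U₁, hU₁M, hU₁, hiso, hiso₁, hp1, hp2, hann₁, hdisj⟩ :=
      exists_hyp_partner S hMinv hMnd hU hUM hsdU
    have hXinv : Inv A (U ⊔ U₁) := inv_sup hU.2.1 hU₁.2.1
    have hXnd : NondegOn (QuadraticMap.polarBilin Q) (U ⊔ U₁) :=
      hyp_nondeg S.symm hiso hiso₁ hp1 hp2
    refine ⟨U ⊔ U₁, hXinv, hXnd, ?_⟩
    have hStd' := std_restrict hS hXinv hXnd
    apply hhyp (Q.restrict (U ⊔ U₁)) N (A.restrict hXinv) hStd'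
      (U.comap (U ⊔ U₁).subtype) (U₁.comap (U ⊔ U₁).subtype)
    · exact irr_comap hXinv le_sup_left hU
    · exact irr_comap hXinv le_sup_right hU₁
    · intro x hx y hy
      exact hiso x hx y hy
    · intro x hx y hy
      exact hiso₁ x hx y hy
    · rw [eq_top_iff]
      intro x _
      obtain ⟨u, hu, u₁, hu₁, hsum⟩ := Submodule.mem_sup.mp x.2
      have hx : x = ⟨u, (le_sup_left : U ≤ U ⊔ U₁) hu⟩ + ⟨u₁, (le_sup_right : U₁ ≤ U ⊔ U₁) hu₁⟩ :=
        Subtype.ext hsum.symm
      rw [hx]
      exact Submodule.add_mem_sup hu hu₁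
    · rw [Submodule.disjoint_def]
      intro x hx hx₁
      apply Subtype.ext
      exact (Submodule.disjoint_def.mp hdisj) x hx hx₁
    · rw [ann_comap le_sup_right (fun _ => rfl),
        ann_comap le_sup_left (coe_pow_apply (B := A) (fun _ => rfl) (N - 1)), hann₁]
    · rw [ann_comap le_sup_left (fun _ => rfl),
        ann_comap le_sup_left (coe_pow_apply (B := A) (fun _ => rfl) (N - 1))]
      exact hsdU

end Cfsg.Agent.Lib.Helper11.OFus
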